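import Cfsg.Agent.OD.Pre
import Cfsg.Agent.H8.DF.O0
set_option autoImplicit false
set_option maxRecDepth 100000
set_option Elab.async false
set_option linter.all false
namespace CfH8.DF
open CfH6 CfH6.D MulAction
theorem iO0 : Rng (chkInvT (fun x => fO (Nat.succ x)) DN.il 16 1008) 0 1008 := rng_of 0 7 112 1008 (by decide +kernel)
theorem rO0 : Rng (chkRelT (fun x => fO (Nat.succ x)) DN.rels) 0 1008 := rng_of 0 7 112 1008 (by decide +kernel)
theorem dO0 : Rng (chkId fO) 0 1008 := rng_of 0 7 112 1008 (by decide +kernel)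
theorem sO0 : Rng (chkSl fO DD.sa DD.sb 7 112) 17 64 := rng_of 17 0 47 64 (by decide +kernel)
end CfH8.DF
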