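import Cfsg.Agent.OD.Pre
import Cfsg.Agent.H8.DF.O0
import Cfsg.Agent.H8.DF.Q0
set_option autoImplicit false
set_option maxRecDepth 100000
set_option Elab.async false
set_option linter.all false
namespace CfH8.DF
open CfH6 CfH6.D MulAction
theorem exO : ∃ ρ : DN.G →* Equiv.Perm ℕ, ∀ x < 16, ∀ p < 1008, fO (Nat.succ x) p = ρ (DN.el x) p ∧ ρ (DN.el x) p < 1008 :=
  tab_hom (fun x => fO (Nat.succ x)) DN.hhom (by decide +kernel) (iO0) (rO0)
noncomputable def rhoO : DN.G →* Equiv.Perm ℕ := Classical.choose exO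
@[reducible] noncomputable def actO : MulAction DN.G ℕ := MulAction.compHom ℕ rhoO
section
attribute [local instance] actO
theorem tb0O : Tb (fun x => fO (Nat.succ x)) 1008 16 DN.el := Classical.choose_spec exO
theorem tbO : Tb fO 1008 64 DD.lt := tb0O.slp (by decide) (dO0) (sO0)
noncomputable def trO : ℕ → ℕ → ℕ := trC fO 6 63 7
theorem trsO : Trs trO DD.cd 1008 := tbO.trs 7 (by decide)
noncomputable def QO : RP := ⟨(nat_lit 1008), (nat_lit 7), (nat_lit 112), (nat_lit 12), (nat_lit 4095), (nat_lit 5), (nat_lit 31)⟩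
theorem lowO : Low (⊤ : Subgroup DN.G) [0] 1008 := levs_low (code := fun k => k) (ok := fun _ => 0) (Q := QO) trsO (fun _ _ => Subgroup.mem_top _) levO _ _ (by decide +kernel)
noncomputable def stO : Subgroup DN.G := stabilizer _ 0
end
end CfH8.DF
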