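import Cfsg.Agent.OD.Pre
import Cfsg.Agent.H8.DF.F0
import Cfsg.Agent.H8.DF.O
set_option autoImplicit false
set_option maxRecDepth 100000
set_option Elab.async false
set_option linter.all false
namespace CfH8.DF
open CfH6 CfH6.D MulAction
theorem p0 : Rng (P.chk) 0 553 := rng_of 0 4 41 553 (by decide +kernel)
theorem c0 : (QO.ok && Nat.blt 0 QO.m && Nat.beq (P.chkCos QO trO 553 LM ed 0 [nat_lit 122, nat_lit 509, nat_lit 511, nat_lit 513, nat_lit 516, nat_lit 518, nat_lit 514, nat_lit 508, nat_lit 510, nat_lit 512, nat_lit 515, nat_lit 47, nat_lit 517, nat_lit 519] 0 0 1 ct0) 0) = true := by decide +kernel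
theorem c1 : (QO.ok && Nat.blt 0 QO.m && Nat.beq (P.chkCos QO trO 553 LM ed 1 [nat_lit 40, nat_lit 42, nat_lit 38, nat_lit 46, nat_lit 44] 1 0 5 ct1) 0) = true := by decide +kernel
theorem l1 : (DD.QD.ok && Nat.beq (chkLevs DD.QD DD.trD P.cdK (P.okE 553 1) lev1 []) 0 && Nat.beq (lev1.map Lev.c).prod 737280) = true := by decide +kernel
theorem c2 : (QO.ok && Nat.blt 0 QO.m && Nat.beq (P.chkCos QO trO 553 LM ed 2 [nat_lit 95, nat_lit 83, nat_lit 75, nat_lit 63, nat_lit 59, nat_lit 62, nat_lit 90, nat_lit 78] 6 0 5 ct2) 0) = true := by decide +kernel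
theorem l2 : (DD.QD.ok && Nat.beq (chkLevs DD.QD DD.trD P.cdK (P.okE 553 2) lev2 []) 0 && Nat.beq (lev2.map Lev.c).prod 589824) = true := by decide +kernel
theorem c4 : (QO.ok && Nat.blt 0 QO.m && Nat.beq (P.chkCos QO trO 553 LM ed 4 [nat_lit 149, nat_lit 263, nat_lit 127, nat_lit 134, nat_lit 125, nat_lit 154, nat_lit 357, nat_lit 144, nat_lit 131, nat_lit 129] 11 0 8 ct4) 0) = true := by decide +kernel
theorem l4 : (DD.QD.ok && Nat.beq (chkLevs DD.QD DD.trD P.cdK (P.okE 553 4) lev4 []) 0 && Nat.beq (lev4.map Lev.c).prod 18432) = true := by decide +kernel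
theorem c5 : (QO.ok && Nat.blt 0 QO.m && Nat.beq (P.chkCos QO trO 553 LM ed 5 [nat_lit 160, nat_lit 180, nat_lit 170, nat_lit 503] 19 0 4 ct5) 0) = true := by decide +kernel
theorem l5 : (DD.QD.ok && Nat.beq (chkLevs DD.QD DD.trD P.cdK (P.okE 553 5) lev5 []) 0 && Nat.beq (lev5.map Lev.c).prod 51840) = true := by decide +kernel
theorem lB : (DD.QD.ok && Nat.beq (chkLevs DD.QD DD.trD P.cdK (P.okP 553 trO) levB []) 0 && Nat.beq (levB.map Lev.c).prod 737280) = true := by decide +kernel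
end CfH8.DF
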